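import Mathlib

/-!
# A solvable group of odd order with an irreducible-like two-dimensional action does not exist

`G` finite solvable of odd order acting on a space `B` over an algebraically closed field, preserving the plane spanned by
`v, w` with determinant one; then two elements which act on the plane as unipotents with different fixed lines cannot exist.
-/

set_option autoImplicit false
set_option linter.unusedSectionVars false

open scoped commutatorElement

namespace Cfsg.Agent.H891.QO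

variable {k B G : Type*} [Field k] [IsAlgClosed k] [AddCommGroup B] [Module k B] [Group G] [Finite G]

/-- `g` acts on `⟨v, w⟩` with matrix `(α β; γ δ)` of determinant one. -/
def Acts (ρ : G →* Module.End k B) (v w : B) (g : G) (α β γ δ : k) : Prop :=
  ρ g v = α • v + γ • w ∧ ρ g w = β • v + δ • w ∧ α * δ - β * γ = 1

theorem rho_smul (ρ : G →* Module.End k B) (g : G) (c : k) (y : B) : ρ g (c • y) = c • ρ g y := map_smul _ _ _

theorem rho_inj (ρ : G →* Module.End k B) (g : G) {x y : B} (h : ρ g x = ρ g y) : x = y := by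
  have h1 : ρ g⁻¹ (ρ g x) = ρ g⁻¹ (ρ g y) := by rw [h]
  have h2 : ∀ z : B, ρ g⁻¹ (ρ g z) = z := by
    intro z
    have : ρ g⁻¹ (ρ g z) = (ρ g⁻¹ * ρ g) z := rfl
    rw [this, ← map_mul, inv_mul_cancel, map_one]; rfl
  rwa [h2, h2] at h1

theorem rho_mul (ρ : G →* Module.End k B) (g h : G) (z : B) : ρ (g * h) z = ρ g (ρ h z) := by
  rw [map_mul]; rfl

/-- Main lemma. -/
theorem false_of (hsol : Group.IsSolvable G) (hodd : Odd (Nat.card G)) (ρ : G →* Module.End k B) {v w : B}
    (hind : ∀ s t : k, s • v + t • w = 0 → s = 0 ∧ t = 0)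
    (hact : ∀ g : G, ∃ α β γ δ : k, Acts ρ v w g α β γ δ)
    {t s : G} {b m : k} (hb : b ≠ 0) (hm : m ≠ 0)
    (ht1 : ρ t v = v) (ht2 : ρ t w = w + b • v) (hs1 : ρ s w = w) (hs2 : ρ s v = v + m • w) : False := by
  classical
  -- plane
  have hP : ∀ (g : G) (x y : k), ∃ x' y' : k, ρ g (x • v + y • w) = x' • v + y' • w := by
    intro g x y
    obtain ⟨α, β, γ, δ, h1, h2, -⟩ := hact g
    refine ⟨x * α + y * β, x * γ + y * δ, ?_⟩
    rw [map_add, rho_smul, rho_smul, h1, h2]
    module
  have heq : ∀ {x y x' y' : k}, x • v + y • w = x' • v + y' • w → x = x' ∧ y = y' := by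
    intro x y x' y' h
    have h1 : (x - x') • v + (y - y') • w = 0 := by
      have : (x - x') • v + (y - y') • w = (x • v + y • w) - (x' • v + y' • w) := by module
      rw [this, h, sub_self]
    obtain ⟨h2, h3⟩ := hind _ _ h1
    exact ⟨sub_eq_zero.mp h2, sub_eq_zero.mp h3⟩
  -- derived series
  let T : ℕ → Prop := fun n => ∀ g ∈ derivedSeries G n, ρ g v = v ∧ ρ g w = w
  have hT : ∃ n, T n := by
    obtain ⟨n, hn⟩ := hsol.solvable
    refine ⟨n, fun g hg => ?_⟩
    rw [hn, Subgroup.mem_bot] at hg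
    rw [hg, map_one]; exact ⟨rfl, rfl⟩
  have hT0 : ¬ T 0 := by
    intro h
    have h1 := (h s (by simp)).1
    rw [hs2] at h1
    have h2 : (0 : k) • v + m • w = 0 := by rw [zero_smul, zero_add]; simpa using h1
    exact hm (hind _ _ h2).2
  obtain ⟨n, hn, hn'⟩ : ∃ n, T (n + 1) ∧ ¬ T n := by
    have h1 := Nat.find_spec hT
    obtain ⟨n, hn⟩ : ∃ n, Nat.find hT = n + 1 := Nat.exists_eq_succ_of_ne_zero (fun h => hT0 (by rwa [h] at h1))
    exact ⟨n, by rwa [hn] at h1, Nat.find_min hT (by omega)⟩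
  set D := derivedSeries G n with hD
  have hDn : D.Normal := derivedSeries_normal G n
  have htriv : ∀ g ∈ derivedSeries G (n + 1), ∀ x y : k, ρ g (x • v + y • w) = x • v + y • w := by
    intro g hg x y
    rw [map_add, rho_smul, rho_smul, (hn g hg).1, (hn g hg).2]
  obtain ⟨a, haD, ha⟩ : ∃ a ∈ D, ¬ (ρ a v = v ∧ ρ a w = w) := by
    by_contra h
    push Not at h
    exact hn' (fun g hg => h g hg)
  -- commutation
  have hcomm : ∀ g ∈ D, ∀ x y : k, ρ (a * g) (x • v + y • w) = ρ (g * a) (x • v + y • w) := by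
    intro g hg x y
    have h1 : a * g = (g * a) * ⁅a⁻¹, g⁻¹⁆ := by
      rw [commutatorElement_def]; group
    have h2 : ⁅a⁻¹, g⁻¹⁆ ∈ derivedSeries G (n + 1) := by
      rw [derivedSeries_succ]
      exact Subgroup.commutator_mem_commutator (inv_mem haD) (inv_mem hg)
    rw [h1, rho_mul, htriv _ h2]
  -- order of elements is odd
  have hordodd : ∀ g : G, ∃ j : ℕ, g = g ^ (2 * j) := by
    intro g
    have h1 : Odd (orderOf g) := Odd.of_dvd_nat hodd (orderOf_dvd_natCard g)
    obtain ⟨j, hj⟩ := h1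
    refine ⟨j + 1, ?_⟩
    have : 2 * (j + 1) = orderOf g + 1 := by omega
    rw [this, pow_succ, pow_orderOf_eq_one, one_mul]
  have hpowsmul : ∀ (g : G) (c : k) (u : B), ρ g u = c • u → ∀ j : ℕ, ρ (g ^ j) u = c ^ j • u := by
    intro g c u h j
    induction j with
    | zero => simp
    | succ j ih => rw [pow_succ, rho_mul, h, rho_smul, ih, smul_smul, pow_succ]; congr 1; ring
  -- a is not scalar
  have hnsc : ¬ ∃ c : k, ρ a v = c • v ∧ ρ a w = c • w := by
    rintro ⟨c, h1, h2⟩
    obtain ⟨α, β, γ, δ, e1, e2, e3⟩ := hact a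
    have f1 := heq (show α • v + γ • w = c • v + (0 : k) • w by rw [← e1, h1]; simp)
    have f2 := heq (show β • v + δ • w = (0 : k) • v + c • w by rw [← e2, h2]; simp)
    rw [f1.1, f1.2, f2.2, mul_zero, sub_zero] at e3
    obtain ⟨j, hj⟩ := hordodd a
    have hvne : v ≠ 0 := by
      rintro rfl
      have := (hind 1 0 (by simp)).1
      exact one_ne_zero this
    have hc1 : c = 1 := by
      have h3 := hpowsmul a c v h1 (2 * j)
      rw [← hj, h1, pow_mul, show c ^ 2 = 1 by rw [sq]; exact e3, one_pow] at h3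
      exact smul_left_injective k hvne h3
    rw [hc1, one_smul] at h1 h2
    exact ha ⟨h1, h2⟩
  -- eigenvector
  obtain ⟨s0, t0, e, hu0ne, hu0⟩ : ∃ s0 t0 e : k, (s0 ≠ 0 ∨ t0 ≠ 0) ∧
      ρ a (s0 • v + t0 • w) = e • (s0 • v + t0 • w) := by
    obtain ⟨α, β, γ, δ, e1, e2, e3⟩ := hact a
    by_cases hγ : γ = 0
    · refine ⟨1, 0, α, Or.inl one_ne_zero, ?_⟩
      simp only [one_smul, zero_smul, add_zero, e1, hγ]
    · obtain ⟨r, hr⟩ : ∃ r : k, r * r - (α + δ) * r + (α * δ - β * γ) = 0 := by
        have := IsAlgClosed.exists_root (Polynomial.X ^ 2 - Polynomial.C (α + δ) * Polynomial.X +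
          Polynomial.C (α * δ - β * γ) : Polynomial k) (by
            have : (Polynomial.X ^ 2 - Polynomial.C (α + δ) * Polynomial.X +
              Polynomial.C (α * δ - β * γ) : Polynomial k).degree = 2 := by compute_degree!
            rw [this]; decide)
        obtain ⟨r, hr⟩ := this
        refine ⟨r, ?_⟩
        simp only [Polynomial.IsRoot.def, Polynomial.eval_add, Polynomial.eval_sub, Polynomial.eval_mul,
          Polynomial.eval_pow, Polynomial.eval_X, Polynomial.eval_C] at hr
        linear_combination hr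
      refine ⟨r - δ, γ, r, Or.inr hγ, ?_⟩
      rw [map_add, rho_smul, rho_smul, e1, e2]
      have h1 : (r - δ) • (α • v + γ • w) + γ • (β • v + δ • w) =
          ((r - δ) * α + γ * β) • v + ((r - δ) * γ + γ * δ) • w := by module
      have h2 : r • ((r - δ) • v + γ • w) = (r * (r - δ)) • v + (r * γ) • w := by module
      rw [h1, h2]
      congr 2
      · linear_combination -hr
      · ring
  set u0 := s0 • v + t0 • w with hu0def
  have hu0ne' : u0 ≠ 0 := by
    intro h
    rcases hu0ne with h1 | h1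
    · exact h1 (hind _ _ h).1
    · exact h1 (hind _ _ h).2
  -- two vectors: dependent or spanning
  have hdep : ∀ x y : k, (∃ c : k, x • v + y • w = c • u0) ∨
      (∀ z : B, (∃ x' y' : k, z = x' • v + y' • w) → ∃ c d : k, z = c • u0 + d • (x • v + y • w)) := by
    intro x y
    by_cases hdet : s0 * y - t0 * x = 0
    · left
      rcases hu0ne with h1 | h1
      · refine ⟨x / s0, ?_⟩
        rw [hu0def, smul_add, smul_smul, smul_smul]
        congr 2
        · field_simp
        · field_simp; linear_combination hdet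
      · refine ⟨y / t0, ?_⟩
        rw [hu0def, smul_add, smul_smul, smul_smul]
        congr 2
        · field_simp; linear_combination -hdet
        · field_simp
    · right
      rintro z ⟨x', y', rfl⟩
      refine ⟨(x' * y - y' * x) / (s0 * y - t0 * x), (s0 * y' - t0 * x') / (s0 * y - t0 * x), ?_⟩
      rw [hu0def, smul_add, smul_add, smul_smul, smul_smul, smul_smul, smul_smul]
      have : (((x' * y - y' * x) / (s0 * y - t0 * x)) * s0) • v + (((x' * y - y' * x) / (s0 * y - t0 * x)) * t0) • w +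
          ((((s0 * y' - t0 * x') / (s0 * y - t0 * x)) * x) • v + (((s0 * y' - t0 * x') / (s0 * y - t0 * x)) * y) • w) =
          (((x' * y - y' * x) / (s0 * y - t0 * x)) * s0 + ((s0 * y' - t0 * x') / (s0 * y - t0 * x)) * x) • v +
          (((x' * y - y' * x) / (s0 * y - t0 * x)) * t0 + ((s0 * y' - t0 * x') / (s0 * y - t0 * x)) * y) • w := by
        module
      rw [this]
      have hd : s0 * y - t0 * x ≠ 0 := hdet
      congr 2
      · rw [div_mul_eq_mul_div, div_mul_eq_mul_div, ← add_div, eq_div_iff hd]; ring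
      · rw [div_mul_eq_mul_div, div_mul_eq_mul_div, ← add_div, eq_div_iff hd]; ring
  have hv_in : ∃ x' y' : k, v = x' • v + y' • w := ⟨1, 0, by simp⟩
  have hw_in : ∃ x' y' : k, w = x' • v + y' • w := ⟨0, 1, by simp⟩
  -- e-eigenvectors
  have heig : ∀ x y : k, ρ a (x • v + y • w) = e • (x • v + y • w) → ∃ c : k, x • v + y • w = c • u0 := by
    intro x y h
    rcases hdep x y with h1 | h1
    · exact h1
    · exfalso
      apply hnsc
      refine ⟨e, ?_, ?_⟩
      · obtain ⟨c, d, hcd⟩ := h1 v hv_in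
        have : ρ a v = ρ a (c • u0 + d • (x • v + y • w)) := by rw [← hcd]
        rw [this, map_add, rho_smul, rho_smul, hu0, h]
        conv_rhs => rw [hcd]
        module
      · obtain ⟨c, d, hcd⟩ := h1 w hw_in
        have : ρ a w = ρ a (c • u0 + d • (x • v + y • w)) := by rw [← hcd]
        rw [this, map_add, rho_smul, rho_smul, hu0, h]
        conv_rhs => rw [hcd]
        module
  have hDeig : ∀ g ∈ D, ∃ c : k, ρ g u0 = c • u0 := by
    intro g hg
    obtain ⟨x', y', hxy⟩ := hP g s0 t0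
    rw [← hu0def] at hxy
    rw [hxy]
    apply heig
    rw [← hxy, ← rho_mul, hu0def, hcomm g hg, rho_mul, ← hu0def, hu0, rho_smul]
  have hDeig2 : ∀ (h : G), ∀ g ∈ D, ∃ c : k, ρ g (ρ h u0) = c • ρ h u0 := by
    intro h g hg
    obtain ⟨c, hc⟩ := hDeig (h⁻¹ * g * h) (by simpa using hDn.conj_mem g hg h⁻¹)
    refine ⟨c, ?_⟩
    rw [← rho_smul, ← hc, ← rho_mul, ← rho_mul]
    congr 2
    group
  have hfix : ∀ h : G, ∃ c : k, ρ h u0 = c • u0 := by
    intro h
    obtain ⟨x1, y1, hu1⟩ := hP h s0 t0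
    rw [← hu0def] at hu1
    rcases hdep x1 y1 with h1 | h1
    · rw [hu1]; exact h1
    exfalso
    obtain ⟨x2, y2, hu2⟩ := hP h x1 y1
    obtain ⟨s', s1, hs'⟩ := h1 (ρ h (x1 • v + y1 • w)) ⟨x2, y2, hu2⟩
    rw [← hu1] at hs' h1 hu2
    have hu1not : ¬ ∃ c : k, ρ h u0 = c • u0 := by
      rintro ⟨c, hc⟩
      obtain ⟨c1, d1, h2⟩ := h1 v hv_in
      obtain ⟨c2, d2, h3⟩ := h1 w hw_in
      rw [hc] at h2 h3
      apply hnsc
      refine ⟨e, ?_, ?_⟩
      · have : ρ a v = ρ a (c1 • u0 + d1 • (c • u0)) := by rw [← h2]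
        rw [this, map_add, rho_smul, rho_smul, rho_smul, hu0]
        conv_rhs => rw [h2]
        module
      · have : ρ a w = ρ a (c2 • u0 + d2 • (c • u0)) := by rw [← h3]
        rw [this, map_add, rho_smul, rho_smul, rho_smul, hu0]
        conv_rhs => rw [h3]
        module
    obtain ⟨e1, he1⟩ := hDeig2 h a haD
    obtain ⟨e2, he2⟩ := hDeig2 (h * h) a haD
    rw [rho_mul] at he2
    rw [hs', map_add, rho_smul, rho_smul, hu0, he1] at he2
    have h4 : (s' * (e - e2)) • u0 + (s1 * (e1 - e2)) • ρ h u0 = 0 := by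
      have : (s' * (e - e2)) • u0 + (s1 * (e1 - e2)) • ρ h u0 =
        (s' • e • u0 + s1 • e1 • ρ h u0) - e2 • (s' • u0 + s1 • ρ h u0) := by module
      rw [this, he2, sub_self]
    have hind2 : ∀ c d : k, c • u0 + d • ρ h u0 = 0 → c = 0 ∧ d = 0 := by
      intro c d hcd
      by_cases hd : d = 0
      · rw [hd, zero_smul, add_zero] at hcd
        rcases smul_eq_zero.mp hcd with h5 | h5
        · exact ⟨h5, hd⟩
        · exact absurd h5 hu0ne'
      · exfalso
        apply hu1not
        refine ⟨-(d⁻¹ * c), ?_⟩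
        have h6 : d • ρ h u0 = -(c • u0) := by
          rw [← sub_eq_zero, sub_neg_eq_add, add_comm]; exact hcd
        have h7 : ρ h u0 = d⁻¹ • (d • ρ h u0) := by rw [smul_smul, inv_mul_cancel₀ hd, one_smul]
        rw [h7, h6]; module
    obtain ⟨h5, h6⟩ := hind2 _ _ h4
    by_cases hs'0 : s' = 0
    · -- h u1 = s1 u1
      apply hu1not
      refine ⟨s1, ?_⟩
      apply rho_inj ρ h
      rw [hs', hs'0, zero_smul, zero_add, rho_smul]
    by_cases hs10 : s1 = 0
    · -- h² u0 = s' u0
      have h7 : ρ (h * h) u0 = s' • u0 := by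
        rw [rho_mul, hs', hs10, zero_smul, add_zero]
      obtain ⟨j, hj⟩ := hordodd h
      have h8 := hpowsmul (h * h) s' u0 h7 j
      have h9 : (h * h) ^ j = h := by
        conv_rhs => rw [hj]
        rw [pow_mul, sq]
      rw [h9] at h8
      exact hu1not ⟨_, h8⟩
    · have h7 : e = e2 := sub_eq_zero.mp ((mul_eq_zero.mp h5).resolve_left hs'0)
      have h8 : e1 = e2 := sub_eq_zero.mp ((mul_eq_zero.mp h6).resolve_left hs10)
      rw [h8, ← h7, hu1] at he1
      obtain ⟨c, hc⟩ := heig x1 y1 he1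
      exact hu1not ⟨c, by rw [hu1, hc]⟩
  -- conclusion
  obtain ⟨c1, hc1⟩ := hfix t
  obtain ⟨c2, hc2⟩ := hfix s
  rw [hu0def, map_add, rho_smul, rho_smul, ht1, ht2] at hc1
  rw [hu0def, map_add, rho_smul, rho_smul, hs1, hs2] at hc2
  have g1 := heq (show (s0 + t0 * b) • v + t0 • w = (c1 * s0) • v + (c1 * t0) • w by
    have : s0 • v + t0 • (w + b • v) = (s0 + t0 * b) • v + t0 • w := by module
    rw [← this, hc1]; module)
  have g2 := heq (show s0 • v + (t0 + s0 * m) • w = (c2 * s0) • v + (c2 * t0) • w by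
    have : s0 • (v + m • w) + t0 • w = s0 • v + (t0 + s0 * m) • w := by module
    rw [← this, hc2]; module)
  by_cases ht0 : t0 = 0
  · have hs0 : s0 ≠ 0 := by
      rcases hu0ne with h | h
      · exact h
      · exact absurd ht0 h
    rw [ht0, mul_zero, zero_add] at g2
    exact (mul_ne_zero hs0 hm) g2.2
  · have : c1 = 1 := by
      have := g1.2
      exact (mul_right_cancel₀ ht0 (by rw [one_mul]; exact this)).symm
    rw [this, one_mul] at g1
    have : t0 * b = 0 := by linear_combination g1.1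
    exact (mul_ne_zero ht0 hb) this

end Cfsg.Agent.H891.QO
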