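import Cfsg.Agent.H891.QuadPair
import Cfsg.Agent.H891.QuadOdd

/-!
# The involution of a pair of square-zero elements

`A` a finite-dimensional algebra over a field `F` of odd characteristic, `N² = K² = 0`, `N K` not nilpotent, `S` a set of units of
the form `1 + λ N`, `1 + μ K` containing one of each kind with non-zero coefficient, `G = ⟨S⟩` finite.  Then (with the odd order
theorem) `|G|` is even, and every involution of `G` is `1 + Θ s(Θ)`, `Θ = N K + K N`.
-/

set_option autoImplicit false
set_option linter.unusedSectionVars false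

open Polynomial TensorProduct

namespace Cfsg.Agent.H891.QP

universe u v

/-- The odd order theorem in universe `u`, as a hypothesis (`Cfsg.Agent.S0205.result`). -/
def OddOrder : Prop := ∀ (X : Type v) [Group X] [Finite X], Odd (Nat.card X) → Group.IsSolvable X

variable {F : Type u} {A : Type v} [Field F] [Ring A] [Algebra F A]

theorem exists_eig [FiniteDimensional F A] {x : A} (hx : ¬ IsNilpotent x) :
    ∃ (c : AlgebraicClosure F) (v : AlgebraicClosure F ⊗[F] A), c ≠ 0 ∧ v ≠ 0 ∧
      (Algebra.TensorProduct.includeRight : A →ₐ[F] AlgebraicClosure F ⊗[F] A) x * v = c • v := by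
  classical
  set i := (Algebra.TensorProduct.includeRight : A →ₐ[F] AlgebraicClosure F ⊗[F] A) with hi
  have hinj : Function.Injective i :=
    Algebra.TensorProduct.includeRight_injective (algebraMap F (AlgebraicClosure F)).injective
  by_contra hcon
  push Not at hcon
  let L : Module.End (AlgebraicClosure F) (AlgebraicClosure F ⊗[F] A) := Algebra.lmul _ _ (i x)
  have hL : ∀ y, L y = i x * y := fun y => rfl
  have hbot : ∀ c : AlgebraicClosure F, c ≠ 0 → L.maxGenEigenspace c = ⊥ := by
    intro c hc
    rw [eq_bot_iff]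
    intro m hm
    rw [Module.End.mem_maxGenEigenspace] at hm
    obtain ⟨n, hn⟩ := hm
    let L' : Module.End (AlgebraicClosure F) (AlgebraicClosure F ⊗[F] A) := L - c • 1
    have hinj2 : ∀ y, L' y = 0 → y = 0 := by
      intro y hy
      by_contra hy0
      apply hcon c y hc hy0
      have : L y - c • y = 0 := hy
      rw [sub_eq_zero] at this
      exact this
    have : ∀ n : ℕ, ∀ y, (L' ^ n) y = 0 → y = 0 := by
      intro n
      induction n with
      | zero => intro y hy; simpa using hy
      | succ n ih =>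
        intro y hy
        rw [pow_succ'] at hy
        exact ih y (hinj2 _ hy)
    exact (Submodule.mem_bot _).mpr (this n m hn)
  have htop : L.maxGenEigenspace 0 = ⊤ := by
    rw [← Module.End.iSup_maxGenEigenspace_eq_top L]
    apply le_antisymm
    · exact le_iSup (fun μ => L.maxGenEigenspace μ) 0
    · apply iSup_le
      intro μ
      by_cases hμ : μ = 0
      · rw [hμ]
      · rw [hbot μ hμ]; exact bot_le
  have h1 : (1 : AlgebraicClosure F ⊗[F] A) ∈ L.maxGenEigenspace 0 := by rw [htop]; trivial
  rw [Module.End.mem_maxGenEigenspace] at h1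
  obtain ⟨n, hn⟩ := h1
  rw [zero_smul, sub_zero] at hn
  apply hx
  refine ⟨n, hinj ?_⟩
  have : ∀ n : ℕ, ∀ y, (L ^ n) y = (i x) ^ n * y := by
    intro n
    induction n with
    | zero => intro y; simp
    | succ n ih =>
      intro y
      rw [pow_succ', pow_succ', mul_assoc, ← ih]; rfl
  rw [this, mul_one] at hn
  rw [map_pow, hn, map_zero]

section
variable {N K : A}

/-- action of the normal form on the plane of an eigenvector -/
theorem plane [FiniteDimensional F A] (hN : N * N = 0) (hK : K * K = 0) {c : AlgebraicClosure F}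
    {v : AlgebraicClosure F ⊗[F] A} (hc : c ≠ 0)
    (hv : (Algebra.TensorProduct.includeRight : A →ₐ[F] AlgebraicClosure F ⊗[F] A) (N * K) * v = c • v) (a b c' d : F[X]) :
    (Algebra.TensorProduct.includeRight : A →ₐ[F] AlgebraicClosure F ⊗[F] A) (nf N K a b c' d) * v =
      (aeval c a + aeval c d * c) • v + (aeval c c') •
        ((Algebra.TensorProduct.includeRight : A →ₐ[F] AlgebraicClosure F ⊗[F] A) K * v) ∧
    (Algebra.TensorProduct.includeRight : A →ₐ[F] AlgebraicClosure F ⊗[F] A) (nf N K a b c' d) *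
        ((Algebra.TensorProduct.includeRight : A →ₐ[F] AlgebraicClosure F ⊗[F] A) K * v) =
      (aeval c b * c) • v + (aeval c a) •
        ((Algebra.TensorProduct.includeRight : A →ₐ[F] AlgebraicClosure F ⊗[F] A) K * v) := by
  set i := (Algebra.TensorProduct.includeRight : A →ₐ[F] AlgebraicClosure F ⊗[F] A) with hi
  set w := i K * v with hw
  have hNw : i N * w = c • v := by rw [hw, ← mul_assoc, ← map_mul, hv]
  have hNv : i N * v = 0 := by
    have : c • (i N * v) = 0 := by
      rw [← mul_smul_comm, ← hNw, ← mul_assoc, ← map_mul, hN, map_zero, zero_mul]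
    exact (smul_eq_zero.mp this).resolve_left hc
  have hKw : i K * w = 0 := by rw [hw, ← mul_assoc, ← map_mul, hK, map_zero, zero_mul]
  have hthv : i (th N K) * v = c • v := by
    unfold th
    rw [map_add, add_mul, hv, map_mul i K N, mul_assoc, hNv, mul_zero, add_zero]
  have hthw : i (th N K) * w = c • w := by
    unfold th
    rw [map_add, add_mul, map_mul i N K, mul_assoc, hKw, mul_zero, zero_add, map_mul, mul_assoc, hNw, mul_smul_comm]
  have hph : ∀ (y : AlgebraicClosure F ⊗[F] A), i (th N K) * y = c • y → ∀ p : F[X], i (ph N K p) * y = (aeval c p) • y := by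
    intro y hy p
    have hpow : ∀ n : ℕ, (i (th N K)) ^ n * y = c ^ n • y := by
      intro n
      induction n with
      | zero => simp
      | succ n ih => rw [pow_succ, mul_assoc, hy, mul_smul_comm, ih, smul_smul, pow_succ]; congr 1; ring
    induction p using Polynomial.induction_on' with
    | add p q hp hq => rw [ph_add, map_add, add_mul, hp, hq, map_add, add_smul]
    | monomial n r =>
      unfold ph
      rw [aeval_monomial, map_mul, map_pow, AlgHom.commutes, mul_assoc, hpow, aeval_monomial,
        ← Algebra.smul_def, ← Algebra.smul_def, smul_assoc]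
  constructor
  · unfold nf
    rw [map_add, map_add, map_add, map_mul, map_mul, map_mul i (ph N K d), add_mul, add_mul, add_mul, mul_assoc, mul_assoc,
      mul_assoc, hNv, hv, ← hw, hph v hthv, hph w hthw, mul_smul_comm, hph v hthv]
    rw [mul_zero, smul_smul]
    module
  · unfold nf
    rw [map_add, map_add, map_add, map_mul, map_mul, map_mul i (ph N K d), add_mul, add_mul, add_mul, mul_assoc, mul_assoc,
      mul_assoc, map_mul i N K, mul_assoc (i N), hKw, hNw, hph w hthw, mul_smul_comm, hph v hthv]
    rw [mul_zero, mul_zero, mul_zero, smul_smul]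
    module

/-- The representation of `⟨S⟩` on `k ⊗ A` by left multiplication. -/
noncomputable def rep (F : Type u) {A : Type v} [Field F] [Ring A] [Algebra F A] (S : Set Aˣ) :
    Subgroup.closure S →* Module.End (AlgebraicClosure F) (AlgebraicClosure F ⊗[F] A) :=
  (((Algebra.lmul (AlgebraicClosure F) (AlgebraicClosure F ⊗[F] A)).toRingHom.toMonoidHom).comp
    ((Algebra.TensorProduct.includeRight : A →ₐ[F] AlgebraicClosure F ⊗[F] A).toRingHom.toMonoidHom)).comp
    ((Units.coeHom A).comp (Subgroup.subtype _))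

theorem rep_apply (S : Set Aˣ) (g : Subgroup.closure S) (y : AlgebraicClosure F ⊗[F] A) :
    rep F S g y = (Algebra.TensorProduct.includeRight : A →ₐ[F] AlgebraicClosure F ⊗[F] A) ((g : Aˣ) : A) * y := rfl

/-- `|⟨S⟩|` is even. -/
theorem even_card [FiniteDimensional F A] (hFT : OddOrder.{v}) (hN : N * N = 0) (hK : K * K = 0)
    (hnil : ¬ IsNilpotent (N * K)) {S : Set Aˣ} (hS : ∀ u ∈ S, IsGen F N K u) [Finite (Subgroup.closure S)]
    {t s : Aˣ} (ht : t ∈ S) (hs : s ∈ S) {l m : F} (hl : l ≠ 0) (hm : m ≠ 0) (ht' : (t : A) = 1 + l • N)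
    (hs' : (s : A) = 1 + m • K) : Even (Nat.card (Subgroup.closure S)) := by
  by_contra hodd
  rw [Nat.not_even_iff_odd] at hodd
  have hsol := hFT _ hodd
  obtain ⟨c, v, hc, hv0, hv⟩ := exists_eig (F := F) hnil
  set i := (Algebra.TensorProduct.includeRight : A →ₐ[F] AlgebraicClosure F ⊗[F] A) with hi
  set w := i K * v with hw
  have hNw : i N * w = c • v := by rw [hw, ← mul_assoc, ← map_mul, hv]
  have hNv : i N * v = 0 := by
    have : c • (i N * v) = 0 := by
      rw [← mul_smul_comm, ← hNw, ← mul_assoc, ← map_mul, hN, map_zero, zero_mul]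
    exact (smul_eq_zero.mp this).resolve_left hc
  have hKw : i K * w = 0 := by rw [hw, ← mul_assoc, ← map_mul, hK, map_zero, zero_mul]
  have hind : ∀ a b : AlgebraicClosure F, a • v + b • w = 0 → a = 0 ∧ b = 0 := by
    intro a b h
    have h1 : i N * (a • v + b • w) = 0 := by rw [h, mul_zero]
    rw [mul_add, mul_smul_comm, mul_smul_comm, hNv, hNw, smul_zero, zero_add, smul_smul] at h1
    have hb : b = 0 := by
      rcases smul_eq_zero.mp h1 with h2 | h2
      · exact (mul_eq_zero.mp h2).resolve_right hc
      · exact absurd h2 hv0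
    rw [hb, zero_smul, add_zero] at h
    exact ⟨(smul_eq_zero.mp h).resolve_right hv0, hb⟩
  refine QO.false_of hsol hodd (rep F S) (v := v) (w := w) hind ?_
    (t := ⟨t, Subgroup.subset_closure ht⟩) (s := ⟨s, Subgroup.subset_closure hs⟩)
    (b := algebraMap F _ l * c) (m := algebraMap F _ m)
    (mul_ne_zero (by simpa using hl) hc) (by simpa using hm) ?_ ?_ ?_ ?_
  · rintro ⟨g, hg⟩
    obtain ⟨r, b, c', d, e1, e2⟩ := hasNF_of_mem (F := F) hN hK hS hg
    obtain ⟨f1, f2⟩ := plane hN hK hc hv (1 + X * r) b c' d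
    obtain ⟨f3, f4⟩ := plane hN hK hc hv (1 + X * r + d * X) (-b) (-c') (-d)
    rw [← hi, ← hw] at f1 f2 f3 f4
    rw [← e1] at f1 f2
    rw [← e2] at f3 f4
    refine ⟨_, _, _, _, f1, f2, ?_⟩
    have h1 : i (g : A) * (i ((g⁻¹ : Aˣ) : A) * v) = v := by
      rw [← mul_assoc, ← map_mul, Units.mul_inv, map_one, one_mul]
    rw [f3, mul_add, mul_smul_comm, mul_smul_comm, f1, f2] at h1
    simp only [map_add, map_mul, map_one, map_neg, aeval_X] at h1 ⊢
    set R := aeval c r
    set D := aeval c d
    set B := aeval c b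
    set C' := aeval c c'
    have h2 : ((1 + c * R + D * c - D * c) * (1 + c * R + D * c) - C' * (B * c) - 1) • v +
        ((1 + c * R + D * c - D * c) * C' - C' * (1 + c * R)) • w = 0 := by
      rw [← sub_eq_zero] at h1
      rw [← h1]
      module
    have h3 := (hind _ _ h2).1
    linear_combination h3
  · rw [rep_apply]
    show i (t : A) * v = v
    rw [ht', map_add, map_one, map_smul, add_mul, one_mul, smul_mul_assoc, hNv, smul_zero, add_zero]
  · rw [rep_apply]
    show i (t : A) * w = _
    rw [ht', map_add, map_one, map_smul, add_mul, one_mul, smul_mul_assoc, hNw, mul_smul, algebraMap_smul]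
  · rw [rep_apply]
    show i (s : A) * w = w
    rw [hs', map_add, map_one, map_smul, add_mul, one_mul, smul_mul_assoc, hKw, smul_zero, add_zero]
  · rw [rep_apply]
    show i (s : A) * v = _
    rw [hs', map_add, map_one, map_smul, add_mul, one_mul, smul_mul_assoc, ← hw, algebraMap_smul]

/-- **The involution of a pair.** -/
theorem exists_invol [FiniteDimensional F A] (hFT : OddOrder.{v}) (h2 : (2 : F) ≠ 0) (hN : N * N = 0) (hK : K * K = 0)
    (hnil : ¬ IsNilpotent (N * K)) {S : Set Aˣ} (hS : ∀ u ∈ S, IsGen F N K u) [Finite (Subgroup.closure S)]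
    {t s : Aˣ} (ht : t ∈ S) (hs : s ∈ S) {l m : F} (hl : l ≠ 0) (hm : m ≠ 0) (ht' : (t : A) = 1 + l • N)
    (hs' : (s : A) = 1 + m • K) :
    ∃ z ∈ Subgroup.closure S, z * z = 1 ∧ z ≠ 1 ∧ Commute (z : A) N ∧ Commute (z : A) K ∧
      ∃ σ : A, Commute σ N ∧ Commute σ K ∧ (z : A) = 1 + N * K * σ + K * N * σ := by
  have hev := even_card hFT hN hK hnil hS ht hs hl hm ht' hs'
  obtain ⟨z, hz⟩ := exists_prime_orderOf_dvd_card' (G := Subgroup.closure S) 2 (even_iff_two_dvd.mp hev)
  have hzz : (z : Aˣ) * z = 1 := by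
    have h1 : z * z = 1 := by rw [← sq, ← hz, pow_orderOf_eq_one]
    exact congrArg Subtype.val h1
  have hz1 : (z : Aˣ) ≠ 1 := by
    intro h
    have : z = 1 := Subtype.ext h
    rw [this, orderOf_one] at hz
    norm_num at hz
  obtain ⟨s', hs''⟩ := (hasNF_of_mem (F := F) hN hK hS z.2).invol h2 hzz
  have c1 : Commute (ph N K s') N := (N_ph hN s').symm
  have c2 : Commute (ph N K s') K := (K_ph hK s').symm
  refine ⟨z, z.2, hzz, hz1, ?_, ?_, ph N K s', c1, c2, ?_⟩
  · rw [hs'']; exact (N_ph hN _).symm
  · rw [hs'']; exact (K_ph hK _).symm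
  · rw [hs'', ph_add, ph_one, ph_mul, ph_X]
    unfold th
    noncomm_ring

end
end Cfsg.Agent.H891.QP
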