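import Mathlib

/-!
# Pairs of square-zero elements

`A` an `F`-algebra, `N, K ∈ A` with `N² = K² = 0`, `Θ = N K + K N` (it commutes with `N` and `K`).  Every element of a group
generated by elements `1 + λ N`, `1 + μ K` has a normal form `1 + Θ r + b N + c K + d N K` with `r, b, c, d ∈ F[Θ]`,
whose inverse is the formal conjugate.
-/

set_option autoImplicit false
set_option linter.unusedSectionVars false

open Polynomial

namespace Cfsg.Agent.H891.QP

variable {F A : Type*} [Field F] [Ring A] [Algebra F A]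

/-- The central element `N K + K N`. -/
def th (N K : A) : A := N * K + K * N

theorem th_comm_left {N K : A} (hN : N * N = 0) : N * th N K = th N K * N := by
  unfold th
  have h1 : N * (N * K + K * N) = N * N * K + N * K * N := by noncomm_ring
  have h2 : (N * K + K * N) * N = N * K * N + K * (N * N) := by noncomm_ring
  rw [h1, h2, hN]; simp

theorem th_comm_right {N K : A} (hK : K * K = 0) : K * th N K = th N K * K := by
  unfold th
  have h1 : K * (N * K + K * N) = K * N * K + K * K * N := by noncomm_ring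
  have h2 : (N * K + K * N) * K = N * (K * K) + K * N * K := by noncomm_ring
  rw [h1, h2, hK]; simp

/-- `F[Θ] → A` -/
noncomputable def ph (N K : A) (p : F[X]) : A := aeval (th N K) p

section
variable {N K : A}

theorem ph_add (p q : F[X]) : ph N K (p + q) = ph N K p + ph N K q := by simp [ph]
theorem ph_sub (p q : F[X]) : ph N K (p - q) = ph N K p - ph N K q := by simp [ph]
theorem ph_neg (p : F[X]) : ph N K (-p) = -ph N K p := by simp [ph]
theorem ph_mul (p q : F[X]) : ph N K (p * q) = ph N K p * ph N K q := by simp [ph]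
theorem ph_one : ph N K (1 : F[X]) = 1 := by simp [ph]
theorem ph_zero : ph N K (0 : F[X]) = 0 := by simp [ph]
theorem ph_X : ph N K (X : F[X]) = th N K := by simp [ph]
theorem ph_C (c : F) : ph N K (C c : F[X]) = algebraMap F A c := by simp [ph]

theorem comm_ph {x : A} (h : x * th N K = th N K * x) (p : F[X]) : x * ph N K p = ph N K p * x := by
  have h1 : Commute x (th N K) := h
  have h2 : Commute x (aeval (th N K) p) := by
    induction p using Polynomial.induction_on' with
    | add p q hp hq => simpa using hp.add_right hq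
    | monomial n a =>
      rw [aeval_monomial]
      exact (show Commute x (algebraMap F A a) from (Algebra.commutes a x).symm).mul_right (h1.pow_right n)
  exact h2

theorem N_ph (hN : N * N = 0) (p : F[X]) : N * ph N K p = ph N K p * N := comm_ph (th_comm_left hN) p
theorem K_ph (hK : K * K = 0) (p : F[X]) : K * ph N K p = ph N K p * K := comm_ph (th_comm_right hK) p

/-- Normal form. -/
noncomputable def nf (N K : A) (a b c d : F[X]) : A :=
  ph N K a + ph N K b * N + ph N K c * K + ph N K d * (N * K)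

theorem nf_mul (hN : N * N = 0) (hK : K * K = 0) (a b c d a' b' c' d' : F[X]) :
    nf N K a b c d * nf N K a' b' c' d' =
      nf N K (a * a' + c * b' * X) (a * b' + b * a' + d * b' * X) (a * c' + c * a' + c * d' * X)
        (a * d' + b * c' - c * b' + d * a' + d * d' * X) := by
  have n1 : ∀ p : F[X], N * ph N K p = ph N K p * N := N_ph hN
  have k1 : ∀ p : F[X], K * ph N K p = ph N K p * K := K_ph hK
  have n2 : ∀ (p : F[X]) (x : A), N * (ph N K p * x) = ph N K p * (N * x) := by
    intro p x; rw [← mul_assoc, n1, mul_assoc]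
  have k2 : ∀ (p : F[X]) (x : A), K * (ph N K p * x) = ph N K p * (K * x) := by
    intro p x; rw [← mul_assoc, k1, mul_assoc]
  have n3 : ∀ x : A, N * (N * x) = 0 := by intro x; rw [← mul_assoc, hN, zero_mul]
  have kn : K * N = ph N K (X : F[X]) - N * K := by rw [ph_X]; unfold th; noncomm_ring
  have kn3 : ∀ x : A, K * (N * x) = ph N K (X : F[X]) * x - N * (K * x) := by
    intro x; rw [← mul_assoc, kn, sub_mul, mul_assoc N K x]
  have pm : ∀ (p q : F[X]), ph N K p * ph N K q = ph N K (p * q) := fun p q => (ph_mul p q).symm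
  have pm2 : ∀ (p q : F[X]) (x : A), ph N K p * (ph N K q * x) = ph N K (p * q) * x := by
    intro p q x; rw [← mul_assoc, pm]
  unfold nf
  simp only [mul_add, add_mul, mul_assoc, n1, k1, n2, k2, hN, hK, n3, kn, kn3, pm, pm2, mul_zero, mul_sub,
    add_zero, sub_zero, ph_add, ph_sub, sub_mul]
  abel

theorem nf_ph (p : F[X]) : nf N K p 0 0 0 = ph N K p := by simp [nf, ph_zero]

theorem nf_congr {a b c d a' b' c' d' : F[X]} (h1 : a = a') (h2 : b = b') (h3 : c = c') (h4 : d = d') :
    nf N K a b c d = nf N K a' b' c' d' := by rw [h1, h2, h3, h4]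

theorem ph_comm_nf (hN : N * N = 0) (hK : K * K = 0) (p a b c d : F[X]) :
    ph N K p * nf N K a b c d = nf N K a b c d * ph N K p := by
  rw [← nf_ph, nf_mul hN hK, nf_mul hN hK]
  apply nf_congr <;> ring

/-- `u = 1 + l N` or `u = 1 + m K`. -/
def IsGen (F : Type*) {A : Type*} [Field F] [Ring A] [Algebra F A] (N K : A) (u : Aˣ) : Prop :=
  (∃ l : F, (u : A) = 1 + l • N) ∨ ∃ m : F, (u : A) = 1 + m • K

/-- The normal form of an element and of its inverse. -/
def HasNF (F : Type*) {A : Type*} [Field F] [Ring A] [Algebra F A] (N K : A) (g : Aˣ) : Prop :=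
  ∃ r b c d : F[X], (g : A) = nf N K (1 + X * r) b c d ∧
    ((g⁻¹ : Aˣ) : A) = nf N K (1 + X * r + d * X) (-b) (-c) (-d)

theorem unit_inv_of {u : Aˣ} {x : A} (h : (u : A) * x = 1) : ((u⁻¹ : Aˣ) : A) = x := by
  have := congrArg (fun y => ((u⁻¹ : Aˣ) : A) * y) h
  simp only [Units.inv_mul_cancel_left, mul_one] at this
  exact this.symm

theorem hasNF_of_isGen (hN : N * N = 0) (hK : K * K = 0) {u : Aˣ} (h : IsGen F N K u) : HasNF F N K u := by
  rcases h with ⟨l, h⟩ | ⟨m, h⟩
  · have e : (u : A) = nf N K (1 + X * 0) (C l) 0 0 := by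
      rw [h]; simp only [nf, ph_zero, mul_zero, add_zero, ph_one, ph_C, zero_mul, Algebra.smul_def]
    refine ⟨0, C l, 0, 0, e, unit_inv_of ?_⟩
    rw [e, nf_mul hN hK]
    have : nf N K (1 : F[X]) 0 0 0 = 1 := by rw [nf_ph, ph_one]
    rw [← this]
    apply nf_congr <;> ring
  · have e : (u : A) = nf N K (1 + X * 0) 0 (C m) 0 := by
      rw [h]; simp only [nf, ph_zero, mul_zero, add_zero, ph_one, ph_C, zero_mul, Algebra.smul_def]
    refine ⟨0, 0, C m, 0, e, unit_inv_of ?_⟩
    rw [e, nf_mul hN hK]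
    have : nf N K (1 : F[X]) 0 0 0 = 1 := by rw [nf_ph, ph_one]
    rw [← this]
    apply nf_congr <;> ring

theorem HasNF.mul (hN : N * N = 0) (hK : K * K = 0) {g h : Aˣ} (hg : HasNF F N K g) (hh : HasNF F N K h) :
    HasNF F N K (g * h) := by
  obtain ⟨r, b, c, d, e1, e2⟩ := hg
  obtain ⟨r', b', c', d', f1, f2⟩ := hh
  refine ⟨r + r' + X * r * r' + c * b', (1 + X * r) * b' + b * (1 + X * r') + d * b' * X,
    (1 + X * r) * c' + c * (1 + X * r') + c * d' * X,
    (1 + X * r) * d' + b * c' - c * b' + d * (1 + X * r') + d * d' * X, ?_, ?_⟩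
  · rw [Units.val_mul, e1, f1, nf_mul hN hK]
    apply nf_congr <;> ring
  · rw [mul_inv_rev, Units.val_mul, e2, f2, nf_mul hN hK]
    apply nf_congr <;> ring

theorem HasNF.inv {g : Aˣ} (hg : HasNF F N K g) : HasNF F N K g⁻¹ := by
  obtain ⟨r, b, c, d, e1, e2⟩ := hg
  refine ⟨r + d, -b, -c, -d, ?_, ?_⟩
  · rw [e2]; apply nf_congr <;> ring
  · rw [inv_inv, e1]; apply nf_congr <;> ring

theorem hasNF_of_mem (hN : N * N = 0) (hK : K * K = 0) {S : Set Aˣ} (hS : ∀ u ∈ S, IsGen F N K u) {g : Aˣ}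
    (hg : g ∈ Subgroup.closure S) : HasNF F N K g := by
  induction hg using Subgroup.closure_induction with
  | mem x hx => exact hasNF_of_isGen hN hK (hS x hx)
  | one =>
    refine ⟨0, 0, 0, 0, ?_, ?_⟩
    · rw [mul_zero, add_zero, nf_ph, ph_one]; rfl
    · rw [mul_zero, add_zero, zero_mul, add_zero, neg_zero, nf_ph, ph_one]; simp
  | mul x y _ _ hx hy => exact hx.mul hN hK hy
  | inv x _ hx => exact hx.inv

/-- `g + g⁻¹ = 2 + Θ s`. -/
theorem HasNF.add_inv {g : Aˣ} (hg : HasNF F N K g) :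
    ∃ s : F[X], (g : A) + ((g⁻¹ : Aˣ) : A) = ph N K (2 + X * s) := by
  obtain ⟨r, b, c, d, e1, e2⟩ := hg
  refine ⟨2 * r + d, ?_⟩
  rw [e1, e2]
  unfold nf
  rw [show (2 + X * (2 * r + d) : F[X]) = (1 + X * r) + (1 + X * r + d * X) by ring]
  simp only [ph_add, ph_neg]
  noncomm_ring

/-- An involution (or 1) with a normal form is `1 + Θ s`. -/
theorem HasNF.invol (h2 : (2 : F) ≠ 0) {g : Aˣ} (hg : HasNF F N K g) (hgg : g * g = 1) :
    ∃ s : F[X], (g : A) = ph N K (1 + X * s) := by
  obtain ⟨s, hs⟩ := hg.add_inv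
  have hi : g⁻¹ = g := inv_eq_of_mul_eq_one_left hgg
  rw [hi] at hs
  refine ⟨C (2 : F)⁻¹ * s, ?_⟩
  have e : (g : A) = (2 : F)⁻¹ • ((g : A) + (g : A)) := by
    rw [← two_smul F (g : A), smul_smul, inv_mul_cancel₀ h2, one_smul]
  rw [e, hs, Algebra.smul_def, ← ph_C (N := N) (K := K), ← ph_mul]
  congr 1
  have : (C (2 : F)⁻¹ : F[X]) * 2 = 1 := by
    rw [← C_ofNat, ← C_mul, inv_mul_cancel₀ h2, C_1]
  rw [mul_add, this]; ring

theorem HasNF.sub_one_sq (hN : N * N = 0) (hK : K * K = 0) {g : Aˣ} (hg : HasNF F N K g) :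
    ∃ s : F[X], ((g : A) - 1) * ((g : A) - 1) = th N K * (ph N K s * (g : A)) ∧
      Commute (th N K) (ph N K s * (g : A)) := by
  obtain ⟨s, hs⟩ := hg.add_inv
  have hc : ∀ p : F[X], Commute (ph N K p) (g : A) := by
    intro p
    obtain ⟨r, b, c, d, e1, e2⟩ := hg
    rw [e1]; exact ph_comm_nf hN hK p _ _ _ _
  refine ⟨s, ?_, ?_⟩
  · have h1 : (g : A) * (g : A) + 1 = ph N K (2 + X * s) * (g : A) := by
      rw [← hs, add_mul, Units.inv_mul]
    rw [ph_add, ph_mul, ph_X] at h1
    have h2 : ph N K (2 : F[X]) = 2 := by unfold ph; exact map_ofNat _ 2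
    rw [h2] at h1
    have : ((g : A) - 1) * ((g : A) - 1) = ((g : A) * (g : A) + 1) - 2 * (g : A) := by noncomm_ring
    rw [this, h1]
    noncomm_ring
  · have h3 : Commute (th N K) (ph N K s) := by
      rw [← ph_X (F := F)]; show _ * _ = _ * _; rw [← ph_mul, ← ph_mul, mul_comm]
    have h4 : Commute (th N K) (g : A) := by rw [← ph_X (F := F)]; exact hc X
    exact h3.mul_right h4

theorem th_nilp (hN : N * N = 0) (hK : K * K = 0) (h : IsNilpotent (N * K)) : IsNilpotent (th N K) := by
  obtain ⟨n, hn⟩ := h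
  have hNK : ∀ m : ℕ, (th N K) ^ m * (N * K) = (N * K) ^ (m + 1) := by
    intro m
    induction m with
    | zero => simp
    | succ m ih =>
      rw [pow_succ' (th N K), mul_assoc, ih, pow_succ' (N * K) (m + 1), pow_succ' (N * K) m]
      unfold th
      have : K * N * (N * K * (N * K) ^ m) = K * (N * N) * K * (N * K) ^ m := by noncomm_ring
      rw [add_mul, this, hN]; simp
  have hKN : ∀ m : ℕ, (th N K) ^ m * (K * N) = K * (N * K) ^ m * N := by
    intro m
    induction m with
    | zero => simp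
    | succ m ih =>
      rw [pow_succ' (th N K), mul_assoc, ih, pow_succ' (N * K) m]
      unfold th
      have h1 : N * K * (K * (N * K) ^ m * N) = N * (K * K) * (N * K) ^ m * N := by noncomm_ring
      rw [add_mul, h1, hK]
      have h2 : K * N * (K * (N * K) ^ m * N) = K * (N * K * (N * K) ^ m) * N := by noncomm_ring
      rw [h2]; simp
  refine ⟨n + 1, ?_⟩
  rw [pow_succ]
  conv_lhs => rw [show th N K = N * K + K * N from rfl]
  rw [show (N * K + K * N) ^ n = (th N K) ^ n from rfl, mul_add, hNK, hKN, pow_succ, hn]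
  simp

/-- If `N K` is nilpotent the group is a `p`-group. -/
theorem isPGroup_closure (p : ℕ) [Fact p.Prime] [CharP A p] (hN : N * N = 0) (hK : K * K = 0)
    (hnil : IsNilpotent (N * K)) {S : Set Aˣ} (hS : ∀ u ∈ S, IsGen F N K u) :
    IsPGroup p (Subgroup.closure S) := by
  obtain ⟨n, hn⟩ := th_nilp hN hK hnil
  rintro ⟨g, hg⟩
  obtain ⟨s, hs, hc⟩ := (hasNF_of_mem (F := F) hN hK hS hg).sub_one_sq hN hK
  have h1 : (((g : A) - 1) * ((g : A) - 1)) ^ n = 0 := by
    rw [hs, hc.mul_pow, hn, zero_mul]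
  have h2 : ((g : A) - 1) ^ (2 * n) = 0 := by
    rw [pow_mul, sq]; exact h1
  refine ⟨2 * n, ?_⟩
  have h3 : ((g : A)) ^ (p ^ (2 * n)) = 1 := by
    have h4 : (g : A) = 1 + ((g : A) - 1) := by abel
    rw [h4, add_pow_char_pow_of_commute _ _ (Commute.one_left _), one_pow]
    have hle : 2 * n ≤ p ^ (2 * n) := (Nat.lt_pow_self (Fact.out : p.Prime).one_lt).le
    rw [pow_eq_zero_of_le hle h2, add_zero]
  apply Subtype.ext
  apply Units.ext
  simpa using h3

end
end Cfsg.Agent.H891.QP
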