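import Cfsg.Agent.H891.QuadInv
import Cfsg.Agent.H880.TI

/-!
# TI elements that are square-zero: a common involution of `H` and `H^g`

`H ≤ M ≤ Aˣ` finite, `A` a finite-dimensional algebra over a field of odd characteristic `p`; `N, N' ∈ A` of square zero with
`1 + l N, 1 + l N' ∈ H`, `1 + N` and `1 + N'` TI (`g t g⁻¹ ∈ H → g ∈ H` for `g ∈ M`) and `C_M(N), C_M(N') ≤ H`.
Then for every `g ∈ M ∖ H` there is an involution `z ∈ H ∩ g H g⁻¹` commuting with `N` and `K = g N' g⁻¹`, of the form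
`z = 1 + N K σ + K N σ` with `σ` commuting with `N` and `K`.
-/

set_option autoImplicit false

namespace Cfsg.Agent.H891.QP

universe u v

/-- A `p`-subgroup of `M` containing a TI element lies in `H`. -/
theorem pgroup_le {G : Type*} [Group G] {p : ℕ} (hp : p.Prime) (M H : Subgroup G) [Finite M]
    (D : Set G) (hD : ∀ s ∈ D, s ∈ H ∧ ∃ k : ℕ, s ^ p ^ k = 1) (hDM : ∀ s ∈ D, s ∈ M)
    (hTI : ∀ s ∈ D, ∀ g ∈ M, g * s * g⁻¹ ∈ H → g ∈ H) {s : G} (hs : s ∈ D) (L : Subgroup G) (hLM : L ≤ M)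
    (hL : IsPGroup p L) (hsL : s ∈ L) : L ≤ H := by
  have : Fact p.Prime := ⟨hp⟩
  intro x hx
  have h := H880.pgroup_fixes (M := M) (p := p) (H.subgroupOf M) {s : M | (s : G) ∈ D}
    (by
      rintro s hs
      obtain ⟨h1, k, h2⟩ := hD s hs
      exact ⟨h1, k, Subtype.ext (by simpa using h2)⟩)
    (by
      rintro s hs g hg
      exact hTI s hs g g.2 hg)
    (s := ⟨s, hDM s hs⟩) hs 1 (L.subgroupOf M) (hL.comap_of_injective M.subtype (Subtype.val_injective))
    (by simpa [Subgroup.mem_subgroupOf] using hsL) ⟨x, hLM hx⟩ hx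
  have h2 : ((⟨x, hLM hx⟩ * 1 : M) : M ⧸ H.subgroupOf M) = ((1 : M) : M ⧸ H.subgroupOf M) := h
  rw [eq_comm, QuotientGroup.eq] at h2
  simpa [Subgroup.mem_subgroupOf] using h2

variable {F : Type u} {A : Type v} [Field F] [Ring A] [Algebra F A]

/-- The unit `1 + x` for `x² = 0`. -/
def uni (x : A) (h : x * x = 0) : Aˣ where
  val := 1 + x
  inv := 1 - x
  val_inv := by have : (1 + x) * (1 - x) = 1 - x * x := by noncomm_ring
                rw [this, h, sub_zero]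
  inv_val := by have : (1 - x) * (1 + x) = 1 - x * x := by noncomm_ring
                rw [this, h, sub_zero]

theorem uni_val (x : A) (h : x * x = 0) : ((uni x h : Aˣ) : A) = 1 + x := rfl

theorem sq_smul {N : A} (hN : N * N = 0) (l : F) : (l • N) * (l • N) = 0 := by
  rw [smul_mul_smul_comm, hN, smul_zero]

theorem sq_conj {N : A} (hN : N * N = 0) (g : Aˣ) :
    ((g : A) * N * ((g⁻¹ : Aˣ) : A)) * ((g : A) * N * ((g⁻¹ : Aˣ) : A)) = 0 := by
  have : ((g : A) * N * ((g⁻¹ : Aˣ) : A)) * ((g : A) * N * ((g⁻¹ : Aˣ) : A)) =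
      (g : A) * (N * ((((g⁻¹ : Aˣ) : A) * (g : A)) * N)) * ((g⁻¹ : Aˣ) : A) := by noncomm_ring
  rw [this, Units.inv_mul, one_mul, hN]; simp

/-- **Involution lemma for TI square-zero elements.** -/
theorem pair_invol [FiniteDimensional F A] (hFT : OddOrder.{v}) {p : ℕ} (hp : p.Prime) [CharP A p] (h2 : (2 : F) ≠ 0)
    (M H : Subgroup Aˣ) [Finite M] (hHM : H ≤ M) {N N' : A} (hN : N * N = 0) (hN' : N' * N' = 0)
    (hNH : ∀ l : F, uni (l • N) (sq_smul hN l) ∈ H) (hNH' : ∀ l : F, uni (l • N') (sq_smul hN' l) ∈ H)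
    (hTI : ∀ g ∈ M, g * uni N hN * g⁻¹ ∈ H → g ∈ H) (hTI' : ∀ g ∈ M, g * uni N' hN' * g⁻¹ ∈ H → g ∈ H)
    (hC : ∀ g ∈ M, Commute (g : A) N → g ∈ H) (hC' : ∀ g ∈ M, Commute (g : A) N' → g ∈ H)
    {g : Aˣ} (hg : g ∈ M) (hgH : g ∉ H) {K : A} (hKdef : K = (g : A) * N' * ((g⁻¹ : Aˣ) : A)) :
    ∃ z : Aˣ, z ∈ H ∧ g⁻¹ * z * g ∈ H ∧ z * z = 1 ∧ z ≠ 1 ∧ Commute (z : A) N ∧ Commute (z : A) K ∧
      ∃ σ : A, Commute σ N ∧ Commute σ K ∧ (z : A) = 1 + N * K * σ + K * N * σ := by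
  have : Fact p.Prime := ⟨hp⟩
  have hK : K * K = 0 := by rw [hKdef]; exact sq_conj hN' g
  have hconj : ∀ l : F, ((g * uni (l • N') (sq_smul hN' l) * g⁻¹ : Aˣ) : A) = 1 + l • K := by
    intro l
    rw [Units.val_mul, Units.val_mul, uni_val, hKdef]
    rw [mul_add, add_mul, mul_one, Units.mul_inv, mul_smul_comm, smul_mul_assoc]
  let S : Set Aˣ := {u | (∃ l : F, (u : A) = 1 + l • N) ∨ ∃ m : F, (u : A) = 1 + m • K}
  have hS : ∀ u ∈ S, IsGen F N K u := fun u hu => hu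
  have hcl : Subgroup.closure S ≤ M := by
    rw [Subgroup.closure_le]
    rintro u (⟨l, hu⟩ | ⟨l, hu⟩)
    · have : u = uni (l • N) (sq_smul hN l) := Units.ext hu
      rw [this]; exact hHM (hNH l)
    · have : u = g * uni (l • N') (sq_smul hN' l) * g⁻¹ := Units.ext (by rw [hconj, hu])
      rw [this]
      exact M.mul_mem (M.mul_mem hg (hHM (hNH' l))) (M.inv_mem hg)
  have hfin : Finite (Subgroup.closure S) :=
    Finite.of_injective (Subgroup.inclusion hcl) (Subgroup.inclusion_injective hcl)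
  have h1N : (1 : F) • N = N := one_smul _ _
  have h1N' : (1 : F) • N' = N' := one_smul _ _
  have huN : uni N hN ∈ H := by
    have := hNH 1
    rwa [show uni ((1 : F) • N) (sq_smul hN 1) = uni N hN from Units.ext (by rw [uni_val, uni_val, h1N])] at this
  have huN' : uni N' hN' ∈ H := by
    have := hNH' 1
    rwa [show uni ((1 : F) • N') (sq_smul hN' 1) = uni N' hN' from Units.ext (by rw [uni_val, uni_val, h1N'])] at this
  have huS : uni N hN ∈ S := Or.inl ⟨1, by rw [uni_val, h1N]⟩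
  have huS' : g * uni N' hN' * g⁻¹ ∈ S := Or.inr ⟨1, by
    have := hconj 1
    rwa [show uni ((1 : F) • N') (sq_smul hN' 1) = uni N' hN' from Units.ext (by rw [uni_val, uni_val, h1N'])] at this⟩
  have hpow : (uni N hN) ^ p ^ 1 = 1 := by
    apply Units.ext
    rw [Units.val_pow_eq_pow_val, uni_val, add_pow_char_pow_of_commute _ _ (Commute.one_left _), one_pow, pow_one]
    have : N ^ p = 0 := by
      obtain ⟨k, hk⟩ := Nat.exists_eq_add_of_le hp.two_le
      rw [hk, pow_add, sq, hN, zero_mul]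
    rw [this]; simp
  have hnil : ¬ IsNilpotent (N * K) := by
    intro hnil
    have hPG := isPGroup_closure (F := F) p hN hK hnil hS
    have hle := pgroup_le hp M H {uni N hN} (by rintro s rfl; exact ⟨huN, 1, hpow⟩)
      (by rintro s rfl; exact hHM huN) (by rintro s rfl g' hg' h'; exact hTI g' hg' h')
      (s := uni N hN) rfl (Subgroup.closure S) hcl hPG (Subgroup.subset_closure huS)
    exact hgH (hTI' g hg (hle (Subgroup.subset_closure huS')))
  obtain ⟨z, hz, hzz, hz1, c1, c2, σ, s1, s2, hσ⟩ := exists_invol hFT h2 hN hK hnil hS huS huS'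
    (l := (1 : F)) (m := (1 : F)) one_ne_zero one_ne_zero (by rw [uni_val, h1N])
    (by
      have := hconj 1
      rwa [show uni ((1 : F) • N') (sq_smul hN' 1) = uni N' hN' from Units.ext (by rw [uni_val, uni_val, h1N'])] at this)
  refine ⟨z, hC z (hcl hz) c1, ?_, hzz, hz1, c1, c2, σ, s1, s2, hσ⟩
  apply hC' _ (M.mul_mem (M.mul_mem (M.inv_mem hg) (hcl hz)) hg)
  show _ * _ = _ * _
  have h3 : (z : A) * K = K * (z : A) := c2
  rw [hKdef] at h3
  have h4 : ((g⁻¹ : Aˣ) : A) * ((z : A) * ((g : A) * N' * ((g⁻¹ : Aˣ) : A))) * (g : A) =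
      ((g⁻¹ : Aˣ) : A) * (((g : A) * N' * ((g⁻¹ : Aˣ) : A)) * (z : A)) * (g : A) := by rw [h3]
  simp only [Units.val_mul]
  calc ((g⁻¹ : Aˣ) : A) * (z : A) * (g : A) * N' = ((g⁻¹ : Aˣ) : A) * ((z : A) * ((g : A) * N' * ((g⁻¹ : Aˣ) : A))) * (g : A) := by
        simp only [mul_assoc, Units.inv_mul, mul_one]
    _ = _ := h4
    _ = N' * (((g⁻¹ : Aˣ) : A) * (z : A) * (g : A)) := by
        simp only [mul_assoc]
        rw [← mul_assoc ((g⁻¹ : Aˣ) : A) (g : A), Units.inv_mul, one_mul]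

end Cfsg.Agent.H891.QP
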